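import Cfsg.Agent.KSG.MultCov

/-!
# Triple covers from voltage assignments

A letter `k` acts on `ℕ × ZMod 3` by `(p, i) ↦ (π k p, c k p ± i)`.  The voltages `c k` are stored as two bit
planes, and words are evaluated on all points at once.
-/

set_option autoImplicit false

namespace Cfsg.Agent.Comp.Volt

open Equiv BN
open scoped commutatorElement

def sg (e : Bool) : ZMod 3 := if e then -1 else 1

theorem sg_mul_self (e : Bool) : sg e * sg e = 1 := by cases e <;> decide
theorem sg_xor (e f : Bool) : sg (xor e f) = sg e * sg f := by cases e <;> cases f <;> decide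

/-- the permutation `(p, i) ↦ (π p, s p ± i)` -/
def vp (π : Perm ℕ) (e : Bool) (s : ℕ → ZMod 3) : Perm (ℕ × ZMod 3) where
  toFun x := (π x.1, s x.1 + sg e * x.2)
  invFun x := (π⁻¹ x.1, sg e * (x.2 - s (π⁻¹ x.1)))
  left_inv x := by
    simp only [Perm.coe_inv, symm_apply_apply, add_sub_cancel_left, ← mul_assoc, sg_mul_self, one_mul]
  right_inv x := by
    simp only [Perm.coe_inv, apply_symm_apply, ← mul_assoc, sg_mul_self, one_mul, add_sub_cancel]

theorem vp_apply (π : Perm ℕ) (e : Bool) (s : ℕ → ZMod 3) (p : ℕ) (i : ZMod 3) :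
    vp π e s (p, i) = (π p, s p + sg e * i) := rfl

theorem vp_mul (π π' : Perm ℕ) (e e' : Bool) (s s' : ℕ → ZMod 3) :
    vp π e s * vp π' e' s' = vp (π * π') (xor e e') (fun p => s (π' p) + sg e * s' p) := by
  ext1 ⟨p, i⟩
  rw [Perm.mul_apply, vp_apply, vp_apply, vp_apply, sg_xor, Perm.mul_apply]
  congr 1; ring

theorem vp_one : vp 1 false (fun _ => 0) = 1 := by
  ext1 ⟨p, i⟩
  rw [vp_apply]; simp [sg]

/-- the planes `A`, `B` represent `s` -/
def Rep (A B : ℕ) (s : ℕ → ZMod 3) : Prop :=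
  ∀ p, A.testBit p = decide (s p = 1) ∧ B.testBit p = decide (s p = 2)

def val (A B p : ℕ) : ZMod 3 := if A.testBit p then 1 else if B.testBit p then 2 else 0

theorem rep_val {A B : ℕ} (h : Nat.land A B = 0) : Rep A B (val A B) := by
  intro p
  have h1 : (A &&& B).testBit p = false := by
    rw [show A &&& B = 0 from h, Nat.zero_testBit]
  rw [Nat.testBit_and] at h1
  unfold val
  revert h1
  cases A.testBit p <;> cases B.testBit p <;> decide

theorem Rep.unique {A B : ℕ} {s t : ℕ → ZMod 3} (h : Rep A B s) (h' : Rep A B t) : s = t := by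
  funext p
  have h1 := (h p).1.symm.trans (h' p).1
  have h2 := (h p).2.symm.trans (h' p).2
  revert h1 h2
  generalize s p = a
  generalize t p = b
  revert a b; decide

theorem Rep.neg {A B : ℕ} {s : ℕ → ZMod 3} (h : Rep A B s) : Rep B A (fun p => sg true * s p) := by
  intro p
  rw [(h p).1, (h p).2]
  exact (by decide : ∀ a : ZMod 3, decide (a = 2) = decide (sg true * a = 1) ∧
    decide (a = 1) = decide (sg true * a = 2)) (s p)

theorem Rep.pos {A B : ℕ} {s : ℕ → ZMod 3} (h : Rep A B s) : Rep A B (fun p => sg false * s p) := by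
  simpa [sg] using h

theorem Rep.add {A B C D : ℕ} {s t : ℕ → ZMod 3} (h : Rep A B s) (h' : Rep C D t) :
    Rep (Nat.xor (Nat.lor B D) (Nat.xor (Nat.lor A D) (Nat.lor B C)))
      (Nat.xor (Nat.lor A C) (Nat.xor (Nat.lor A D) (Nat.lor B C))) (fun p => s p + t p) := by
  intro p
  change ((B ||| D) ^^^ ((A ||| D) ^^^ (B ||| C))).testBit p = _ ∧
    ((A ||| C) ^^^ ((A ||| D) ^^^ (B ||| C))).testBit p = _
  simp only [Nat.testBit_xor, Nat.testBit_or, (h p).1, (h p).2, (h' p).1, (h' p).2]
  exact (by decide : ∀ a b : ZMod 3, ((decide (a = 2) || decide (b = 2)) ^^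
        ((decide (a = 1) || decide (b = 2)) ^^ (decide (a = 2) || decide (b = 1)))) = decide (a + b = 1) ∧
    ((decide (a = 1) || decide (b = 1)) ^^
        ((decide (a = 1) || decide (b = 2)) ^^ (decide (a = 2) || decide (b = 1)))) = decide (a + b = 2)) (s p) (t p)

/-- the data: planes of the voltages and signs of the letters -/
structure Dat where
  As : List ℕ
  Bs : List ℕ
  es : List Bool

namespace Dat
variable (D : Dat) (a : Act)

noncomputable def c (k : ℕ) : ℕ → ZMod 3 := val (nth 0 D.As k) (nth 0 D.Bs k)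

noncomputable def y (π : ℕ → Perm ℕ) (k : ℕ) : Perm (ℕ × ZMod 3) := vp (π k) (nth false D.es k) (D.c k)

noncomputable def addK (A B C E : ℕ) (k : ℕ → ℕ → Bool) : Bool :=
  force (Nat.xor (Nat.lor A E) (Nat.lor B C)) fun t =>
    force (Nat.xor (Nat.lor B E) t) fun r1 => force (Nat.xor (Nat.lor A C) t) fun r2 => k r1 r2

/-- run a word on a state, then apply the final test -/
noncomputable def run (fin : Bool → ℕ → ℕ → Bool) (W : List ℕ) : Bool → ℕ → ℕ → Bool :=
  List.rec (motive := fun _ => Bool → ℕ → ℕ → Bool) fin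
    (fun k _ ih e A B => force (a.A k A) fun A' => force (a.A k B) fun B' =>
      Bool.rec (motive := fun _ => Bool)
        (Bool.rec (motive := fun _ => Bool) (addK A' B' (nth 0 D.As k) (nth 0 D.Bs k) (ih false))
          (addK A' B' (nth 0 D.As k) (nth 0 D.Bs k) (ih true)) (nth false D.es k))
        (Bool.rec (motive := fun _ => Bool) (addK A' B' (nth 0 D.Bs k) (nth 0 D.As k) (ih true))
          (addK A' B' (nth 0 D.Bs k) (nth 0 D.As k) (ih false)) (nth false D.es k)) e) W

noncomputable def okC (nl : ℕ) : Bool :=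
  band (band (Nat.ble D.As.length nl) (band (Nat.ble D.Bs.length nl) (Nat.ble D.es.length nl)))
    (allN (fun k => Nat.beq (Nat.land (nth 0 D.As k) (nth 0 D.Bs k)) 0) nl)

variable {D a} {N nl : ℕ} {π : ℕ → Perm ℕ}

theorem rep_c (h : D.okC nl = true) (k : ℕ) : Rep (nth 0 D.As k) (nth 0 D.Bs k) (D.c k) := by
  simp only [okC, band_eq, Nat.ble_eq, allN_eq] at h
  by_cases hk : k < nl
  · exact rep_val (Nat.eq_of_beq_eq_true (h.2 k hk))
  · exact rep_val (by rw [nth_of_le _ _ _ (show D.As.length ≤ k by omega)]; exact Nat.zero_and _)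

theorem y_out (h : D.okC nl = true) {k : ℕ} (hk : nl ≤ k) (h1 : π k = 1) : D.y π k = 1 := by
  simp only [okC, band_eq, Nat.ble_eq] at h
  rw [y, h1, nth_of_le _ _ _ (show D.es.length ≤ k by omega), ← vp_one]
  congr 1
  funext p
  rw [c, nth_of_le _ _ _ (show D.As.length ≤ k by omega), nth_of_le _ _ _ (show D.Bs.length ≤ k by omega)]
  simp [val]

theorem run_spec (s : a.Spec N π) (h : D.okC nl = true) {fin : Bool → ℕ → ℕ → Bool} (W : List ℕ)
    {e : Bool} {A B : ℕ} {t : ℕ → ZMod 3} (σ : Perm ℕ) (hr : Rep A B t) (hc : D.run a fin W e A B = true) :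
    ∃ e' A' B' t', Rep A' B' t' ∧ fin e' A' B' = true ∧
      vp σ e t * ev (D.y π) W = vp (σ * ev π W) e' t' := by
  induction W generalizing e A B t σ with
  | nil => exact ⟨e, A, B, t, hr, hc, by simp⟩
  | cons k W ih =>
    have h1 : Rep (a.A k A) (a.A k B) (fun p => t (π k p)) := fun p => by
      rw [s.hA, s.hA]; exact hr _
    have h2 := rep_c h k
    rw [ev_cons, ev_cons, ← mul_assoc, ← mul_assoc, y, vp_mul]
    have h3 : D.run a fin (k :: W) e A B = force (a.A k A) fun A' => force (a.A k B) fun B' =>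
      Bool.rec (motive := fun _ => Bool)
        (Bool.rec (motive := fun _ => Bool) (addK A' B' (nth 0 D.As k) (nth 0 D.Bs k) (D.run a fin W false))
          (addK A' B' (nth 0 D.As k) (nth 0 D.Bs k) (D.run a fin W true)) (nth false D.es k))
        (Bool.rec (motive := fun _ => Bool) (addK A' B' (nth 0 D.Bs k) (nth 0 D.As k) (D.run a fin W true))
          (addK A' B' (nth 0 D.Bs k) (nth 0 D.As k) (D.run a fin W false)) (nth false D.es k)) e := rfl
    rw [h3, force_eq, force_eq] at hc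
    revert hc
    cases e <;> cases nth false D.es k <;> intro hc <;> simp only [addK, force_eq] at hc
    · exact ih _ (h1.add h2.pos) hc
    · exact ih _ (h1.add h2.pos) hc
    · exact ih _ (h1.add h2.neg) hc
    · exact ih _ (h1.add h2.neg) hc

end Dat

/-- the indicator of a bit set -/
def ind (S p : ℕ) : ZMod 3 := if S.testBit p then 1 else 0

/-- the central element -/
def zz (S : ℕ) : Perm (ℕ × ZMod 3) := vp 1 false (ind S)

theorem rep_ind (S : ℕ) : Rep S 0 (ind S) := fun p => by
  unfold ind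
  rw [Nat.zero_testBit]
  cases S.testBit p <;> decide

theorem rep_zero : Rep 0 0 (fun _ => 0) := fun p => by
  rw [Nat.zero_testBit]; exact ⟨rfl, rfl⟩

theorem zz_inv (S : ℕ) : (zz S)⁻¹ = vp 1 false (fun p => sg true * ind S p) := by
  rw [inv_eq_iff_mul_eq_one, zz, vp_mul, ← vp_one]
  congr 1
  funext p
  simp [sg]

theorem zz_cube (S : ℕ) : zz S ^ 3 = 1 := by
  rw [pow_succ, pow_two, zz, vp_mul, vp_mul, ← vp_one]
  congr 1
  funext p
  simp only [sg, Perm.coe_one, id_eq, Bool.xor_false, Bool.false_eq_true, if_false, one_mul]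
  generalize ind S p = a
  revert a; decide

theorem zz_conj {S : ℕ} {σ : Perm ℕ} (h : ∀ p, S.testBit (σ p) = S.testBit p) (e : Bool) (t : ℕ → ZMod 3) :
    vp σ e t * zz S * (vp σ e t)⁻¹ = zz S ∨ vp σ e t * zz S * (vp σ e t)⁻¹ = (zz S)⁻¹ := by
  have h1 : ∀ p, ind S (σ p) = ind S p := fun p => by rw [ind, h, ind]
  cases e
  · left
    rw [mul_inv_eq_iff_eq_mul, zz, vp_mul, vp_mul, mul_one, one_mul]
    congr 1
    funext p
    simp [sg, h1, add_comm]
  · right
    rw [mul_inv_eq_iff_eq_mul, zz_inv, zz, vp_mul, vp_mul, mul_one, one_mul]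
    congr 1
    funext p
    simp [sg, h1, add_comm]

noncomputable def fin0 (e : Bool) (A B : ℕ) : Bool := bif' e false (band (Nat.beq A 0) (Nat.beq B 0))

noncomputable def finZ (S : ℕ) (e : Bool) (A B : ℕ) : Bool :=
  bif' e false (bif' (Nat.beq A 0) (bif' (Nat.beq B 0) true (Nat.beq B S)) (band (Nat.beq A S) (Nat.beq B 0)))

namespace Dat
variable {D : Dat} {a : Act} {N nl : ℕ} {π : ℕ → Perm ℕ}

theorem ev_one (s : a.Spec N π) (h : D.okC nl = true) {W : List ℕ} (h1 : ev π W = 1)
    (hc : D.run a fin0 W false 0 0 = true) : ev (D.y π) W = 1 := by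
  obtain ⟨e, A, B, t, h2, h3, h4⟩ := run_spec s h W 1 rep_zero hc
  rw [vp_one, one_mul, one_mul, h1] at h4
  cases e
  · have h5 := (band_eq _ _).1 h3
    rw [Nat.eq_of_beq_eq_true h5.1, Nat.eq_of_beq_eq_true h5.2] at h2
    rw [h4, h2.unique rep_zero, vp_one]
  · exact absurd h3 (by simp [fin0, bif'])

theorem ev_mem (s : a.Spec N π) (h : D.okC nl = true) {S : ℕ} {W : List ℕ} (h1 : ev π W = 1)
    (hc : D.run a (finZ S) W false 0 0 = true) : ev (D.y π) W ∈ Subgroup.zpowers (zz S) := by
  obtain ⟨e, A, B, t, h2, h3, h4⟩ := run_spec s h W 1 rep_zero hc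
  rw [vp_one, one_mul, one_mul, h1] at h4
  cases e
  · simp only [finZ, bif'_eq, Bool.false_eq_true, if_false, Nat.beq_eq] at h3
    rw [h4]
    split_ifs at h3 with h5 h6
    · rw [h5, h6] at h2
      rw [h2.unique rep_zero, vp_one]; exact one_mem _
    · rw [h5, Nat.eq_of_beq_eq_true h3] at h2
      rw [h2.unique (rep_ind S).neg, ← zz_inv]
      exact inv_mem (Subgroup.mem_zpowers _)
    · have h7 := (band_eq _ _).1 h3
      rw [Nat.eq_of_beq_eq_true h7.1, Nat.eq_of_beq_eq_true h7.2] at h2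
      rw [h2.unique (rep_ind S)]
      exact Subgroup.mem_zpowers _
  · exact absurd h3 (by simp [finZ, bif'])

end Dat

/-! ### Tracking a point -/

noncomputable def Dat.trk (D : Dat) (a : Act) (W : List ℕ) : ℕ → ℕ → ℕ :=
  List.rec (motive := fun _ => ℕ → ℕ → ℕ) (fun _ i => i)
    (fun k _ ih p i => force (Nat.mod (Nat.add (bif' (tb (nth 0 D.As k) p) 1 (bif' (tb (nth 0 D.Bs k) p) 2 0))
      (bif' (nth false D.es k) (Nat.add i i) i)) 3) fun j => force (a.F k p) fun q => ih q j) W

theorem Dat.trk_spec {D : Dat} {a : Act} {N : ℕ} {π : ℕ → Perm ℕ} (s : a.Spec N π) (W : List ℕ) (p i : ℕ) :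
    (ev (D.y π) W.reverse (p, (i : ZMod 3))).2 = (D.trk a W p i : ZMod 3) := by
  induction W generalizing p i with
  | nil => rfl
  | cons k W ih =>
    have h1 : D.trk a (k :: W) p i = force (Nat.mod (Nat.add (bif' (tb (nth 0 D.As k) p) 1
      (bif' (tb (nth 0 D.Bs k) p) 2 0)) (bif' (nth false D.es k) (Nat.add i i) i)) 3) fun j =>
        force (a.F k p) fun q => D.trk a W q j := rfl
    rw [h1, force_eq, force_eq, ← ih, List.reverse_cons, ev_append, ev_cons, ev_nil, mul_one, Perm.mul_apply,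
      Dat.y, vp_apply, s.hF]
    congr 3
    change _ = (((_ + _) % 3 : ℕ) : ZMod 3)
    rw [ZMod.natCast_mod, Nat.cast_add, Dat.c, val, tb_eq, tb_eq]
    congr 1
    · cases (nth 0 D.As k).testBit p <;> cases (nth 0 D.Bs k).testBit p <;> rfl
    · cases nth false D.es k
      · simp [sg, bif']
      · change _ = ((i + i : ℕ) : ZMod 3)
        rw [Nat.cast_add]
        generalize (i : ZMod 3) = b
        revert b; decide

/-- the word of a commutator -/
noncomputable def cw (I : ℕ → ℕ) (U V : List ℕ) : List ℕ := appendL U (appendL V (appendL (BN.invW I U) (BN.invW I V)))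

theorem ev_cw {G : Type*} [Group G] {x : ℕ → G} {I : ℕ → ℕ} (h : ∀ k, x (I k) * x k = 1) (U V : List ℕ) :
    ev x (cw I U V) = ⁅ev x U, ev x V⁆ := by
  rw [cw, appendL_eq, appendL_eq, appendL_eq, ev_append, ev_append, ev_append, ev_invW h, ev_invW h,
    commutatorElement_def]
  group

noncomputable def Dat.invC (D : Dat) (a : Act) (P : Pres) (S : ℕ) : Bool :=
  allN (fun k => band (Nat.beq (a.A k S) S) (D.run a fin0 [P.I k, k] false 0 0)) P.inv.length

noncomputable def Dat.relC (D : Dat) (a : Act) (S : ℕ) (rs : List (List ℕ)) : Bool :=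
  BN.allL (fun r => D.run a (finZ S) r false 0 0) rs

/-- a triple cover of the commutator subgroup -/
theorem multOnto {G : Type} [Group G] {P : Pres} {x : ℕ → G} {π : ℕ → Perm ℕ} {bs : List ℕ} {ρ : G →* Perm ℕ}
    (hl : Link P x) (hm : PModel P x π bs ρ) {a : Act} {N : ℕ} (s : a.Spec N π) (D : Dat) (S : ℕ)
    (h0 : D.okC P.inv.length = true) (h1 : D.invC a P S = true) (rss : List (List (List ℕ)))
    (hr : P.rels = rss.flatten) (h2 : AllP (fun rs => D.relC a S rs = true) rss)
    (U U' V V' : List ℕ) (o p : ℕ)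
    (h3 : fixC a bs (BN.powW (cw P.I (cw P.I U U') (cw P.I V V')) o) = true)
    (h4 : Nat.beq (Nat.mod (D.trk a (rev (BN.powW (cw P.I (cw P.I U U') (cw P.I V V')) o)) p 0) 3) 0 = false) :
    KSG.Pc.MultOnto (commutator G) (Multiplicative (ZMod 3)) := by
  have hπ := hm.satπ
  simp only [Dat.invC, allN_eq, band_eq] at h1
  have out : ∀ k, P.inv.length ≤ k → D.y π k = 1 := fun k hk => Dat.y_out h0 hk (hπ.out k hk)
  have hinv : ∀ k, D.y π (P.I k) * D.y π k = 1 := inv_of_lt out fun k hk => by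
    simpa using Dat.ev_one s h0 (W := [P.I k, k]) (by simpa using hπ.inv k) (h1 k hk).2
  refine KSG.Pc.multOnto_link' hl (y := D.y π) (z := zz S) (fun k => zz_conj (fun q => ?_) _ _)
    (fun k hk => by rw [out k hk]; exact one_mem _) (fun k => by rw [hinv]; exact one_mem _)
    (fun r hr' => ?_) Nat.prime_three (zz_cube S) (U := U) (U' := U') (V := V) (V' := V') (o := o) ?_ ?_
  · by_cases hk : k < P.inv.length
    · rw [← s.hA, Nat.eq_of_beq_eq_true (h1 k hk).1]
    · rw [hπ.out k (not_lt.1 hk)]; rfl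
  · have h5 := hr'
    rw [hr] at h5
    obtain ⟨rs, h6, h7⟩ := List.mem_flatten.1 h5
    exact Dat.ev_mem s h0 (hπ.rel r hr') ((BN.allL_eq _ _).1 (h2.forall rs h6) r h7)
  · have := hm.eq_one s h3
    rwa [ev_powW, ev_cw hm.sat.inv, ev_cw hm.sat.inv, ev_cw hm.sat.inv] at this
  · intro e
    have := Dat.trk_spec (D := D) s (rev (BN.powW (cw P.I (cw P.I U U') (cw P.I V V')) o)) p 0
    rw [rev_eq, List.reverse_reverse, ev_powW, ev_cw hinv, ev_cw hinv, ev_cw hinv, e, ← rev_eq, Perm.one_apply,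
      eq_comm, Nat.cast_zero, ZMod.natCast_eq_zero_iff] at this
    rw [show Nat.mod _ 3 = 0 from Nat.mod_eq_zero_of_dvd this] at h4
    exact absurd h4 (by decide)

end Cfsg.Agent.Comp.Volt
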